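import Cfsg.Agent.PF3.Cyc
import Cfsg.Prelude.Def_OddOrderLocal
import Cfsg.Prelude.Def_OddOrderChar

/-! Bridges between `IsSelfNormalizingCyclic` / `IsCyclicTIFamily` of the Prelude and the ambient
API of `PF3.Cyc` (helper10). -/

set_option autoImplicit false
set_option linter.unusedVariables false
set_option linter.unusedSectionVars false
set_option maxSynthPendingDepth 3

namespace Cfsg.Agent.PF3

open Cfsg.Agent.PF Cfsg.Agent.BG
open scoped ComplexConjugate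

variable {G : Type*} [Group G] {W₁ W₂ : Subgroup G}

theorem dprod_of_comm (hdisj : W₁ ⊓ W₂ = ⊥) (hcomm : ∀ a ∈ W₁, ∀ b ∈ W₂, a * b = b * a) :
    Dprod W₁ W₂ (W₁ ⊔ W₂) := ⟨rfl, cents_symm (le_cent_iff.2 hcomm), hdisj⟩

theorem snc_dprod (h : IsSelfNormalizingCyclic W₁ W₂) : Dprod W₁ W₂ (W₁ ⊔ W₂) :=
  dprod_of_comm h.2.2.1 h.2.2.2.1

theorem snc_comm (h : IsSelfNormalizingCyclic W₁ W₂) : IsMulCommutative ↥(W₁ ⊔ W₂) :=
  cyclic_abelian h.2.2.2.2.1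

theorem snc_ti [Finite G] (h : IsSelfNormalizingCyclic W₁ W₂) :
    NormedTI (cycV (W₁ ⊔ W₂) W₁ W₂) ⊤ (W₁ ⊔ W₂) := by
  have hd := snc_dprod h
  have hc := snc_comm h
  obtain ⟨h1, h2, -, -, hcyc, hN⟩ := h
  have hne : (cycV (W₁ ⊔ W₂) W₁ W₂).Nonempty := by
    obtain ⟨x, hx⟩ := sharp_nonempty.2 h1
    obtain ⟨y, hy⟩ := sharp_nonempty.2 h2
    exact ⟨_, (mem_cycV_iff hd).2 ⟨x, hx, y, hy, rfl⟩⟩
  refine normedTI_of hne le_top (fun g hg a ha => ?_) fun g _ a ha hga => ?_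
  · rwa [IsMulCommutative.comm hc hg (cycV_sub _ _ _ ha), mul_inv_cancel_right]
  · have key : ∀ b ∈ cycV (W₁ ⊔ W₂) W₁ W₂, C1[b] = W₁ ⊔ W₂ := by
      intro b hb
      rw [← hN {b} (Set.singleton_subset_iff.2 hb) ⟨b, rfl⟩]
      ext x
      rw [mem_cent1, Subgroup.mem_set_normalizer_iff]
      simp only [Set.mem_singleton_iff]
      constructor
      · intro e n
        constructor
        · rintro rfl; rw [e, mul_inv_cancel_right]
        · intro e'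
          have : x * n * x⁻¹ = x * b * x⁻¹ := by rw [e', e, mul_inv_cancel_right]
          simpa using this
      · intro e
        exact mul_inv_eq_iff_eq_mul.1 ((e b).1 rfl)
    have hg : g ∈ N[W₁ ⊔ W₂] := by
      rw [mem_norm, ← key a ha, ← C1_conj, key _ hga, key a ha]
    have n : Subgroup.zpowers g ≤ N[W₁ ⊔ W₂] := by simpa using hg
    have n1 : g ∈ N[W₁] := norms_sub_cyclic hcyc le_sup_left n (Subgroup.mem_zpowers g)
    have n2 : g ∈ N[W₂] := norms_sub_cyclic hcyc le_sup_right n (Subgroup.mem_zpowers g)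
    rw [← hN _ subset_rfl hne, Subgroup.mem_set_normalizer_iff]
    intro x
    show x ∈ cycV _ _ _ ↔ _ ∈ cycV _ _ _
    simp only [mem_cycV, conj_mem_iff_of_norm hg, conj_mem_iff_of_norm n1, conj_mem_iff_of_norm n2]

theorem snc_cycTI [Finite G] (h : IsSelfNormalizingCyclic W₁ W₂) (hodd : Odd #(W₁ ⊔ W₂)) :
    CycTI ⊤ (W₁ ⊔ W₂) W₁ W₂ := ⟨snc_dprod h, h.2.2.2.2.1, hodd, snc_ti h⟩

theorem snc_of_ti (hd : Dprod W₁ W₂ (W₁ ⊔ W₂)) (hc : IsCyclic ↥(W₁ ⊔ W₂))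
    (ti : NormedTI (cycV (W₁ ⊔ W₂) W₁ W₂) ⊤ (W₁ ⊔ W₂)) : IsSelfNormalizingCyclic W₁ W₂ := by
  obtain ⟨w, hw⟩ := ti.ne
  obtain ⟨x, hx, y, hy, -⟩ := (mem_cycV_iff hd).1 hw
  refine ⟨ne_bot_of_mem hx.1 hx.2, ne_bot_of_mem hy.1 hy.2, hd.inf,
    fun a ha b hb => dprod_comm hd ha hb, hc, fun A hA hne => ?_⟩
  have := (ti.subset hA hne fun g hg a ha => by
    rwa [IsMulCommutative.comm (cyclic_abelian hc) hg (hA ha).1, mul_inv_cancel_right]).normalizer_eq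
  simpa using this

variable {W : Subgroup G} (hd : Dprod W₁ W₂ W)

theorem triv_right_iff {φ : Dual W} :
    (∀ w : W, (w : G) ∈ W₂ → φ w = 1) ↔ resD hd.ler φ = 1 := by
  constructor
  · intro h
    exact MonoidHom.ext fun w => h ⟨w, hd.ler w.2⟩ w.2
  · intro h w hw
    exact DFunLike.congr_fun h ⟨w, hw⟩

theorem triv_left_iff {φ : Dual W} :
    (∀ w : W, (w : G) ∈ W₁ → φ w = 1) ↔ resD hd.lel φ = 1 := triv_right_iff hd.symm

theorem exists_om_right {φ : Dual W} (h : ∀ w : W, (w : G) ∈ W₂ → φ w = 1) :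
    ∃ i, φ = om hd i 1 := ⟨_, by rw [← (triv_right_iff hd).1 h, om_resD]⟩

theorem exists_om_left {φ : Dual W} (h : ∀ w : W, (w : G) ∈ W₁ → φ w = 1) :
    ∃ j, φ = om hd 1 j := ⟨_, by rw [← (triv_left_iff hd).1 h, om_resD]⟩

theorem alpha_coe (i : Dual W₁) (j : Dual W₂) (w : W) : alpha hd i j w =
    1 - (om hd i 1 w : ℂ) - (om hd 1 j w : ℂ) + (om hd i 1 w : ℂ) * (om hd 1 j w : ℂ) := by
  simp only [alpha, Pi.add_apply, Pi.sub_apply, one_of_mem w.2, lin_coe]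
  rw [om_split hd i j]; simp

theorem indFun_alpha {Y : Type*} [Group Y] [Fintype Y] {W W₁ W₂ : Subgroup Y} (hd : Dprod W₁ W₂ W)
    (i : Dual W₁) (j : Dual W₂) :
    indFun W (fun w => 1 - (om hd i 1 w : ℂ) - (om hd 1 j w : ℂ) +
      (om hd i 1 w : ℂ) * (om hd 1 j w : ℂ)) = Ind W ⊤ (alpha hd i j) := by
  rw [Ind_top_eq_indFun]
  congr 1
  funext w
  exact (alpha_coe hd i j w).symm

theorem dirr_top_iff [Finite G] {χ : G → ℂ} :
    Dirr ⊤ χ ↔ IsIrrCharacter G χ ∨ IsIrrCharacter G (-χ) := by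
  rw [dirr_iff, mem_Irr_top, mem_Irr_top]

theorem family_Ind {Y : Type*} [Group Y] [Fintype Y] {W₁ W₂ : Subgroup Y}
    (hd : Dprod W₁ W₂ (W₁ ⊔ W₂)) {χ : Dual (W₁ ⊔ W₂) → Y → ℂ} (hχ : IsCyclicTIFamily W₁ W₂ χ)
    (i : Dual W₁) (j : Dual W₂) : Ind (W₁ ⊔ W₂) ⊤ (alpha hd i j) =
      χ 1 - χ (om hd i 1) - χ (om hd 1 j) + χ (om hd i j) := by
  by_cases hi : i = 1
  · simp [hi]
  by_cases hj : j = 1
  · simp [hj]
  rw [← indFun_alpha, hχ.induced_eq _ _ (by simp [om_eq_one, hi]) (by simp [om_eq_one, hj])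
    ((triv_right_iff hd).2 (by simp)) ((triv_left_iff hd).2 (by simp)), ← om_split, hχ.map_one]
  rfl

theorem family_eq_et {Y : Type*} [Group Y] [Fintype Y] {W₁ W₂ : Subgroup Y}
    (h : CycTI ⊤ (W₁ ⊔ W₂) W₁ W₂) {χ : Dual (W₁ ⊔ W₂) → Y → ℂ} (hχ : IsCyclicTIFamily W₁ W₂ χ)
    (l : Dual (W₁ ⊔ W₂)) : χ l = h.et l :=
  h.eq_et (dirr_top_iff.2 (hχ.irr_or_neg l)) fun x hx => by
    rw [mem_cycV] at hx
    rw [lin_of_mem _ hx.1]
    exact hχ.eq_on l ⟨x, hx.1⟩ hx.2.1 hx.2.2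

end Cfsg.Agent.PF3
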